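import Mathlib
import Cfsg.Agent.Lib.ChevIso.OmegaPlus
import Cfsg.Agent.Lib.Recog13.Signed

/-!
The group `PΩ⁺₂`: it is trivial.
-/

set_option autoImplicit false
set_option linter.unusedSectionVars false
set_option linter.unusedSimpArgs false

namespace Cfsg.Agent.Lib.StGen.OmSmall

open Matrix Cfsg Sum
open Cfsg.Agent.Lib.ChevIso Cfsg.Agent.Lib.ChevIso.OmegaPlus

variable {F : Type*} [Field F]

/-- The isometry group. -/
abbrev O1 (F : Type*) [Field F] := Cfsg.isometryGroup F (Cfsg.quadFormPlus 1 F)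

local notation "i0" => (inl 0 : Fin 1 ⊕ Fin 1)
local notation "i1" => (inr 0 : Fin 1 ⊕ Fin 1)

/-- The matrix of an element. -/
abbrev mt (g : O1 F) : Matrix (Fin 1 ⊕ Fin 1) (Fin 1 ⊕ Fin 1) F := (g.1 : GL (Fin 1 ⊕ Fin 1) F)

theorem mt_mul (g h : O1 F) (i j : Fin 1 ⊕ Fin 1) :
    mt (g * h) i j = mt g i i0 * mt h i0 j + mt g i i1 * mt h i1 j := by
  change ((g.1 : Matrix (Fin 1 ⊕ Fin 1) (Fin 1 ⊕ Fin 1) F) * (h.1 : Matrix (Fin 1 ⊕ Fin 1) (Fin 1 ⊕ Fin 1) F)) i j = _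
  rw [Matrix.mul_apply, Fintype.sum_sum_type]
  simp [Fin.sum_univ_succ]

theorem mt_one (i j : Fin 1 ⊕ Fin 1) : mt (1 : O1 F) i j = (1 : Matrix (Fin 1 ⊕ Fin 1) (Fin 1 ⊕ Fin 1) F) i j := rfl

theorem entries (g : O1 F) :
    mt g i0 i0 * mt g i1 i0 = 0 ∧ mt g i0 i1 * mt g i1 i1 = 0 ∧
      mt g i0 i0 * mt g i1 i1 + mt g i1 i0 * mt g i0 i1 = 1 := by
  have hcol : ∀ c, ((g.1 : GL (Fin 1 ⊕ Fin 1) F) : Matrix (Fin 1 ⊕ Fin 1) (Fin 1 ⊕ Fin 1) F) *ᵥ
      (OmegaPlus.e c : Fin 1 ⊕ Fin 1 → F) = fun k => mt g k c := by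
    intro c
    funext k
    rw [OmegaPlus.e, Matrix.mulVec_single_one]
    rfl
  refine ⟨?_, ?_, ?_⟩
  · have h1 := mem_O.1 g.2 (OmegaPlus.e i0 : Fin 1 ⊕ Fin 1 → F)
    rw [hcol, Q_e] at h1
    simpa [Cfsg.quadFormPlus] using h1
  · have h1 := mem_O.1 g.2 (OmegaPlus.e i1 : Fin 1 ⊕ Fin 1 → F)
    rw [hcol, Q_e] at h1
    simpa [Cfsg.quadFormPlus] using h1
  · have h1 := polar_of_mem_O g.2 (OmegaPlus.e i0 : Fin 1 ⊕ Fin 1 → F) (OmegaPlus.e i1)
    rw [hcol, hcol, polarF_e] at h1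
    simpa [polarF, e_apply] using h1

/-- Diagonal. -/
def IsD (g : O1 F) : Prop := mt g i0 i1 = 0 ∧ mt g i1 i0 = 0

/-- Antidiagonal. -/
def IsA (g : O1 F) : Prop := mt g i0 i0 = 0 ∧ mt g i1 i1 = 0

theorem dich (g : O1 F) : IsD g ∨ IsA g := by
  obtain ⟨h1, h2, h3⟩ := entries g
  rcases mul_eq_zero.1 h1 with h | h
  · right
    refine ⟨h, ?_⟩
    rw [h, zero_mul, zero_add] at h3
    exact (mul_eq_zero.1 h2).resolve_left (right_ne_zero_of_mul_eq_one h3)
  · left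
    refine ⟨?_, h⟩
    rw [h, zero_mul, add_zero] at h3
    exact (mul_eq_zero.1 h2).resolve_right (right_ne_zero_of_mul_eq_one h3)

theorem not_both (g : O1 F) (h1 : IsD g) (h2 : IsA g) : False := by
  obtain ⟨-, -, h3⟩ := entries g
  rw [h1.1, h2.1] at h3
  simp at h3

theorem D_mul {g h : O1 F} (h1 : IsD g) (h2 : IsD h) : IsD (g * h) := by
  constructor <;> rw [mt_mul]
  · rw [h1.1, h2.1]; simp
  · rw [h1.2, h2.2]; simp

theorem A_mul {g h : O1 F} (h1 : IsA g) (h2 : IsA h) : IsD (g * h) := by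
  constructor <;> rw [mt_mul]
  · rw [h1.1, h2.2]; simp
  · rw [h1.2, h2.1]; simp

theorem DA_mul {g h : O1 F} (h1 : IsD g) (h2 : IsA h) : IsA (g * h) := by
  constructor <;> rw [mt_mul]
  · rw [h1.1, h2.1]; simp
  · rw [h1.2, h2.2]; simp

theorem AD_mul {g h : O1 F} (h1 : IsA g) (h2 : IsD h) : IsA (g * h) := by
  constructor <;> rw [mt_mul]
  · rw [h1.1, h2.2]; simp
  · rw [h1.2, h2.1]; simp

open Classical in
/-- The sign homomorphism. -/
noncomputable def sgn : O1 F →* ℤˣ where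
  toFun g := if IsD g then 1 else -1
  map_one' := by
    have h : IsD (1 : O1 F) := by
      constructor <;> rw [mt_one] <;> simp [Matrix.one_apply]
    simp [h]
  map_mul' g h := by
    rcases dich g with h1 | h1 <;> rcases dich h with h2 | h2
    · rw [if_pos h1, if_pos h2, if_pos (D_mul h1 h2)]; rfl
    · rw [if_pos h1, if_neg (fun h3 => not_both h h3 h2),
        if_neg (fun h3 => not_both _ h3 (DA_mul h1 h2))]; rfl
    · rw [if_neg (fun h3 => not_both g h3 h1), if_pos h2,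
        if_neg (fun h3 => not_both _ h3 (AD_mul h1 h2))]; rfl
    · rw [if_neg (fun h3 => not_both g h3 h1), if_neg (fun h3 => not_both h h3 h2),
        if_pos (A_mul h1 h2)]; rfl

theorem isD_of_omega (g : Cfsg.Omega F (Cfsg.quadFormPlus 1 F)) : IsD g.1 := by
  classical
  have h : (Cfsg.Omega F (Cfsg.quadFormPlus 1 F)) ≤ (sgn (F := F)).ker := by
    exact Abelianization.commutator_subset_ker _
  have h2 := h g.2
  rw [MonoidHom.mem_ker] at h2
  change (if IsD g.1 then (1 : ℤˣ) else -1) = 1 at h2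
  by_contra hc
  rw [if_neg hc] at h2
  exact absurd h2 (by decide)

theorem omega_comm (g h : Cfsg.Omega F (Cfsg.quadFormPlus 1 F)) : g * h = h * g := by
  have h1 := isD_of_omega g
  have h2 := isD_of_omega h
  apply Subtype.ext
  apply Subtype.ext
  apply Units.ext
  ext i j
  change mt (g.1 * h.1) i j = mt (h.1 * g.1) i j
  rw [mt_mul, mt_mul]
  have e1 := h1.1
  have e2 := h1.2
  have e3 := h2.1
  have e4 := h2.2
  rcases i with i | i <;> rcases j with j | j <;> fin_cases i <;> fin_cases j <;> simp [e1, e2, e3, e4, mul_comm]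

theorem center_top : Subgroup.center (Cfsg.Omega F (Cfsg.quadFormPlus 1 F)) = ⊤ := by
  rw [eq_top_iff]
  intro g _
  rw [Subgroup.mem_center_iff]
  exact fun h => omega_comm h g

instance : Subsingleton (Cfsg.POmega F (Cfsg.quadFormPlus 1 F)) := by
  constructor
  intro a b
  obtain ⟨a, rfl⟩ := QuotientGroup.mk_surjective a
  obtain ⟨b, rfl⟩ := QuotientGroup.mk_surjective b
  apply QuotientGroup.eq.2
  rw [center_top]
  exact Subgroup.mem_top _

/-- The rank one case. -/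
theorem main (p : ℕ) [Fact p.Prime] : ∃ χ : Cfsg.POmega F (Cfsg.quadFormPlus 1 F) → ℂ,
    Cfsg.IsIrrCharacter (Cfsg.POmega F (Cfsg.quadFormPlus 1 F)) χ ∧
      ∀ P : Sylow p (Cfsg.POmega F (Cfsg.quadFormPlus 1 F)), χ 1 = Nat.card P ∧
        ∀ x : Cfsg.POmega F (Cfsg.quadFormPlus 1 F), x ∈ P → x ≠ 1 → χ x = 0 := by
  refine ⟨1, Cfsg.Agent.Lib.Recog13.isIrr_one, fun P => ⟨?_, fun x _ hx => absurd (Subsingleton.elim x 1) hx⟩⟩
  have : Subsingleton P := inferInstance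
  simp [Nat.card_unique]

end Cfsg.Agent.Lib.StGen.OmSmall
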