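import Mathlib
import Cfsg.Agent.Lib.Classical.Herm.ExcPlus4
import Cfsg.Agent.Lib.ChevIso.OmegaPlus
import Cfsg.Agent.S0287
import Cfsg.Agent.S2544

/-!
The group `PΩ⁺₄(2)` of order `18` and its character of degree `2`.
-/

set_option autoImplicit false
set_option linter.unusedSectionVars false
set_option linter.unusedSimpArgs false

namespace Cfsg.Agent.Lib.StGen.OmTwo

open Matrix Cfsg Cfsg.Agent.Lib.Classical.Herm Cfsg.Agent.Lib.Classical.Herm.ExcTwo Cfsg.Agent.Lib.Classical.Herm.ExcPlus4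
open scoped MatrixGroups commutatorElement

section Abs

/-- Inflation. -/
theorem irr_comp {K G : Type*} [Group K] [Group G] (f : K →* G) (hf : Function.Surjective f) {χ : G → ℂ}
    (h : IsIrrCharacter G χ) : IsIrrCharacter K (χ ∘ f) := by
  obtain ⟨d, ρ, hρ, rfl⟩ := h
  let ρ' : Representation ℂ K (Fin d → ℂ) := ρ.comp f
  have hcomp : ∀ g : K, ρ' g = ρ (f g) := fun g => rfl
  refine ⟨d, ρ', ?_, ?_⟩
  · let Φ : Subrepresentation ρ' ≃o Subrepresentation ρ :=
      { toFun := fun S => ⟨S.toSubmodule, fun c v hv => by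
          obtain ⟨g, rfl⟩ := hf c
          rw [← hcomp]
          exact S.apply_mem_toSubmodule g hv⟩
        invFun := fun S => ⟨S.toSubmodule, fun g v hv => by
          rw [hcomp]
          exact S.apply_mem_toSubmodule (f g) hv⟩
        left_inv := fun S => rfl
        right_inv := fun S => rfl
        map_rel_iff' := Iff.rfl }
    exact (OrderIso.isSimpleOrder_iff Φ).2 hρ
  · funext g
    rfl

/-- Transfer along a surjection with `p'`-kernel. -/
theorem steinberg_of_surj {K G : Type*} [Group K] [Group G] [Finite K] (p : ℕ) [Fact p.Prime]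
    (f : K →* G) (hf : Function.Surjective f) (hker : ¬ p ∣ Nat.card f.ker) {χ₀ : G → ℂ}
    (hχ : IsIrrCharacter G χ₀)
    (h : ∀ P : Sylow p G, χ₀ 1 = Nat.card P ∧ ∀ x : G, x ∈ P → x ≠ 1 → χ₀ x = 0) :
    ∃ χ : K → ℂ, IsIrrCharacter K χ ∧ ∀ Q : Sylow p K, χ 1 = Nat.card Q ∧ ∀ x : K, x ∈ Q → x ≠ 1 → χ x = 0 := by
  have hinj : ∀ Q : Sylow p K, ∀ x : K, x ∈ Q → f x = 1 → x = 1 := by
    intro Q x hx hfx
    obtain ⟨k, hk⟩ := (IsPGroup.iff_orderOf.1 Q.2) ⟨x, hx⟩
    have h1 : orderOf x = p ^ k := by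
      rw [← hk]
      exact (Subgroup.orderOf_mk x hx).symm
    have hxk : x ∈ f.ker := hfx
    have h2 : orderOf x ∣ Nat.card f.ker := by
      rw [← Subgroup.orderOf_mk x hxk]
      exact orderOf_dvd_natCard _
    rcases Nat.eq_zero_or_pos k with rfl | hk0
    · rw [pow_zero] at h1
      exact orderOf_eq_one_iff.1 h1
    · exact absurd ((dvd_pow_self p hk0.ne').trans (h1 ▸ h2)) hker
  refine ⟨χ₀ ∘ f, irr_comp f hf hχ, fun Q => ?_⟩
  have hP := h (Q.mapSurjective hf)
  have hcard : Nat.card ↥(Q.mapSurjective hf : Subgroup G) = Nat.card Q := by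
    rw [Sylow.coe_mapSurjective]
    have h1 : Function.Injective (f.comp (Q : Subgroup K).subtype) := by
      rw [injective_iff_map_eq_one]
      intro a ha
      exact Subtype.ext (hinj Q a.1 a.2 ha)
    have h2 := Nat.card_congr (MonoidHom.ofInjective h1).toEquiv
    rw [h2, MonoidHom.range_comp, Subgroup.range_subtype]
  refine ⟨?_, fun x hx hx1 => ?_⟩
  · simp only [Function.comp, map_one]
    rw [hP.1]
    exact congrArg _ hcard
  · refine hP.2 (f x) ?_ (fun h1 => hx1 (hinj Q x hx h1))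
    exact Subgroup.mem_map_of_mem f hx

/-- An involution without fixed points on six points is odd. -/
theorem sign_neg_of_fpf {α : Type*} [Fintype α] [DecidableEq α] (σ : Equiv.Perm α) (h2 : σ * σ = 1)
    (hfp : ∀ a, σ a ≠ a) (hcard : Fintype.card α = 6) : Equiv.Perm.sign σ = -1 := by
  have hne : σ ≠ 1 := by
    intro h
    have : Nonempty α := Fintype.card_pos_iff.1 (by omega)
    exact hfp (Classical.arbitrary α) (by rw [h]; rfl)
  have hord : orderOf σ = 2 := orderOf_eq_prime (by rw [pow_two, h2]) hne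
  obtain ⟨n, hn⟩ := Equiv.Perm.cycleType_prime_order (σ := σ) (by rw [hord]; exact Nat.prime_two)
  rw [hord] at hn
  have hs : σ.support = Finset.univ := by
    ext a
    simp [hfp a]
  have h3 := Equiv.Perm.sum_cycleType σ
  rw [hs, Finset.card_univ, hcard, hn, Multiset.sum_replicate, smul_eq_mul] at h3
  have h4 : n = 2 := by omega
  rw [Equiv.Perm.sign_of_cycleType, hn, Multiset.sum_replicate, Multiset.card_replicate, h4]
  decide

end Abs

variable {F : Type*} [Field F]

/-- The isometry group. -/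
abbrev O2 (F : Type*) [Field F] := Cfsg.isometryGroup F (Cfsg.quadFormPlus 2 F)

/-- The group `Ω`. -/
abbrev Om2 (F : Type*) [Field F] := Cfsg.Omega F (Cfsg.quadFormPlus 2 F)

local notation "Q₄" => Cfsg.quadFormPlus 2 F

theorem mem_O2 {g : GL I4 F} : g ∈ O2 F ↔ ∀ w, Q₄ ((g : Matrix I4 I4 F) *ᵥ w) = Q₄ w :=
  Cfsg.Agent.Lib.ChevIso.OmegaPlus.mem_O

/-- The transpose map. -/
def tauL : Module.End F (I4 → F) where
  toFun v := fromM (toM v)ᵀ
  map_add' u v := by rw [toM_add, Matrix.transpose_add, fromM_add]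
  map_smul' c v := by
    rw [toM_smul, Matrix.transpose_smul, fromM_smul]
    rfl

theorem toM_tauL (v : I4 → F) : toM (tauL v) = (toM v)ᵀ := toM_fromM _

theorem tauL_tauL (v : I4 → F) : tauL (tauL v) = v := by
  change fromM (toM (tauL v))ᵀ = v
  rw [toM_tauL, Matrix.transpose_transpose, fromM_toM]

theorem quad_tauL (v : I4 → F) : Q₄ (tauL v) = Q₄ v := by
  rw [← det_toM, ← det_toM, toM_tauL, Matrix.det_transpose]

theorem toM_inj {u v : I4 → F} (h : toM u = toM v) : u = v := by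
  rw [← fromM_toM u, h, fromM_toM]

theorem tau_sq : (LinearMap.toMatrix' (tauL (F := F))) * LinearMap.toMatrix' (tauL (F := F)) = 1 := by
  rw [← LinearMap.toMatrix'_comp]
  have : (tauL (F := F)).comp tauL = LinearMap.id := LinearMap.ext tauL_tauL
  rw [this, LinearMap.toMatrix'_id]

/-- The transpose map as an isometry. -/
noncomputable def tauG : O2 F :=
  ⟨⟨LinearMap.toMatrix' tauL, LinearMap.toMatrix' tauL, tau_sq, tau_sq⟩, mem_O2.2 (fun w => by
    change Q₄ (LinearMap.toMatrix' tauL *ᵥ w) = Q₄ w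
    rw [LinearMap.toMatrix'_mulVec, quad_tauL])⟩

theorem tauG_mulVec (v : I4 → F) : ((tauG.1 : GL I4 F) : Matrix I4 I4 F) *ᵥ v = tauL v :=
  LinearMap.toMatrix'_mulVec _ _

theorem O2_ext {g h : O2 F}
    (H : ∀ v, ((g.1 : GL I4 F) : Matrix I4 I4 F) *ᵥ v = ((h.1 : GL I4 F) : Matrix I4 I4 F) *ᵥ v) : g = h := by
  apply Subtype.ext
  apply Units.ext
  apply Matrix.ext_of_mulVec_single
  intro j
  exact H _

theorem mul_mulVec (g h : O2 F) (v : I4 → F) :
    (((g * h).1 : GL I4 F) : Matrix I4 I4 F) *ᵥ v =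
      ((g.1 : GL I4 F) : Matrix I4 I4 F) *ᵥ (((h.1 : GL I4 F) : Matrix I4 I4 F) *ᵥ v) := by
  rw [Matrix.mulVec_mulVec]
  rfl

theorem rho4_mulVec (x y : SL(2, F)) (v : I4 → F) :
    (((rho4 (x, y)).1 : GL I4 F) : Matrix I4 I4 F) *ᵥ v =
      actOf (x : Matrix (Fin 2) (Fin 2) F) (y : Matrix (Fin 2) (Fin 2) F)ᵀ v :=
  ExcCore.isomHom_mulVec _ mainHom quad_mainHom (x, y) v

theorem tauG_comm (x : SL(2, F)) : tauG * rho4 (x, 1) = rho4 (1, x) * tauG := by
  apply O2_ext
  intro v
  rw [mul_mulVec, mul_mulVec, tauG_mulVec, tauG_mulVec, rho4_mulVec, rho4_mulVec]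
  apply toM_inj
  rw [toM_tauL, toM_actOf, toM_actOf, toM_tauL]
  simp [Matrix.transpose_mul]

theorem rho4_mem (x : SL(2, F)) : rho4 (x, x⁻¹) ∈ Om2 F := by
  have h1 : ⁅(tauG : O2 F), rho4 ((x⁻¹, 1) : SL(2, F) × SL(2, F))⁆ = rho4 ((x, x⁻¹) : SL(2, F) × SL(2, F)) := by
    rw [commutatorElement_def, tauG_comm, mul_inv_cancel_right, ← map_inv, ← map_mul]
    simp
  rw [← h1]
  exact Subgroup.commutator_mem_commutator (Subgroup.mem_top _) (Subgroup.mem_top _)

section Fin2

variable [Fintype F]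

theorem center_bot (h2 : (2 : F) = 0) : Subgroup.center (SL(2, F)) = ⊥ :=
  Subgroup.eq_bot_of_card_eq _ (card_center_sl2_even h2)

theorem rho4_inj (h2 : (2 : F) = 0) : Function.Injective (rho4 (F := F)) := by
  rw [injective_iff_map_eq_one]
  rintro ⟨x, y⟩ h
  obtain ⟨h3, rfl⟩ := (mem_ker_rho4 x y).1 h
  rw [center_bot h2, Subgroup.mem_bot] at h3
  rw [h3]
  rfl

theorem card_O2 : Nat.card (O2 F) = 2 * (Nat.card (SL(2, F))) ^ 2 := by
  rw [Cfsg.Agent.S0287.result rfl 2 (by norm_num), Cfsg.Agent.Lib.Classical.Herm.ExcTwo.card_sl2 rfl]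
  simp
  ring

theorem index_range (h2 : (2 : F) = 0) : (rho4 (F := F)).range.index = 2 := by
  have h1 := Subgroup.card_mul_index (rho4 (F := F)).range
  have h3 : Nat.card (rho4 (F := F)).range = Nat.card (SL(2, F)) * Nat.card (SL(2, F)) := by
    rw [← Nat.card_prod]
    exact (Nat.card_congr (MonoidHom.ofInjective (rho4_inj h2)).toEquiv).symm
  rw [h3, card_O2] at h1
  have h4 : 0 < Nat.card (SL(2, F)) := Nat.card_pos
  have h5 : Nat.card (SL(2, F)) * Nat.card (SL(2, F)) * (rho4 (F := F)).range.index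
      = Nat.card (SL(2, F)) * Nat.card (SL(2, F)) * 2 := by
    rw [h1]
    ring
  exact Nat.eq_of_mul_eq_mul_left (by positivity) h5

theorem om_le (h2 : (2 : F) = 0) : Om2 F ≤ (rho4 (F := F)).range := by
  have hi := index_range h2
  change ⁅(⊤ : Subgroup (O2 F)), (⊤ : Subgroup (O2 F))⁆ ≤ _
  rw [Subgroup.commutator_le]
  intro g _ h _
  rw [commutatorElement_def, mul_assoc, mul_assoc, Subgroup.mul_mem_iff_of_index_two hi,
    Subgroup.mul_mem_iff_of_index_two hi, Subgroup.mul_mem_iff_of_index_two hi,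
    Subgroup.inv_mem_iff, Subgroup.inv_mem_iff]
  by_cases hg : g ∈ (rho4 (F := F)).range <;> by_cases hh : h ∈ (rho4 (F := F)).range <;> simp [hg, hh]

/-- The identification of the range. -/
noncomputable def eqv (h2 : (2 : F) = 0) : SL(2, F) × SL(2, F) ≃* (rho4 (F := F)).range :=
  MonoidHom.ofInjective (rho4_inj h2)

/-- The first coordinate. -/
noncomputable def psi (h2 : (2 : F) = 0) : Om2 F →* Matrix.ProjectiveSpecialLinearGroup (Fin 2) F :=
  (QuotientGroup.mk' _).comp ((MonoidHom.fst _ _).comp ((eqv h2).symm.toMonoidHom.comp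
    (Subgroup.inclusion (om_le h2))))

theorem psi_spec (h2 : (2 : F) = 0) (g : Om2 F) (x y : SL(2, F)) (h : g.1 = rho4 (x, y)) :
    psi h2 g = (x : Matrix.ProjectiveSpecialLinearGroup (Fin 2) F) := by
  have h1 : (eqv h2).symm (Subgroup.inclusion (om_le h2) g) = (x, y) := by
    rw [MulEquiv.symm_apply_eq]
    apply Subtype.ext
    exact h
  change (((eqv h2).symm (Subgroup.inclusion (om_le h2) g)).1 : Matrix.ProjectiveSpecialLinearGroup (Fin 2) F) = _
  rw [h1]

theorem psi_surj (h2 : (2 : F) = 0) : Function.Surjective (psi h2) := by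
  intro a
  obtain ⟨x, rfl⟩ := QuotientGroup.mk_surjective a
  exact ⟨⟨_, rho4_mem x⟩, psi_spec h2 _ x x⁻¹ rfl⟩

/-- The points of norm one. -/
abbrev XX (F : Type*) [Field F] := {v : I4 → F // Cfsg.quadFormPlus 2 F v = 1}

/-- The action on the points of norm one. -/
def pm (g : O2 F) : Equiv.Perm (XX F) where
  toFun v := ⟨((g.1 : GL I4 F) : Matrix I4 I4 F) *ᵥ v.1, by rw [mem_O2.1 g.2, v.2]⟩
  invFun v := ⟨((g⁻¹.1 : GL I4 F) : Matrix I4 I4 F) *ᵥ v.1, by rw [mem_O2.1 g⁻¹.2, v.2]⟩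
  left_inv v := by
    apply Subtype.ext
    change ((g⁻¹.1 : GL I4 F) : Matrix I4 I4 F) *ᵥ (((g.1 : GL I4 F) : Matrix I4 I4 F) *ᵥ v.1) = v.1
    rw [← mul_mulVec, inv_mul_cancel]
    simp
  right_inv v := by
    apply Subtype.ext
    change ((g.1 : GL I4 F) : Matrix I4 I4 F) *ᵥ (((g⁻¹.1 : GL I4 F) : Matrix I4 I4 F) *ᵥ v.1) = v.1
    rw [← mul_mulVec, mul_inv_cancel]
    simp

/-- The permutation action. -/
def pmHom : O2 F →* Equiv.Perm (XX F) where
  toFun := pm
  map_one' := by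
    apply Equiv.ext
    intro v
    apply Subtype.ext
    change ((((1 : O2 F).1 : GL I4 F) : Matrix I4 I4 F) *ᵥ v.1) = v.1
    simp
  map_mul' g h := by
    apply Equiv.ext
    intro v
    apply Subtype.ext
    exact mul_mulVec g h v.1

theorem card_XX : Nat.card (XX F) = Nat.card (SL(2, F)) := by
  refine Nat.card_congr ⟨fun v => ⟨toM v.1, by rw [det_toM]; exact v.2⟩,
    fun x => ⟨fromM (x : Matrix (Fin 2) (Fin 2) F), by rw [← det_toM, toM_fromM]; exact x.2⟩, ?_, ?_⟩
  · intro v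
    apply Subtype.ext
    exact fromM_toM _
  · intro x
    apply Subtype.ext
    exact toM_fromM _

theorem no_inv (hF : Fintype.card F = 2) (g : Om2 F) (hg : orderOf g = 2)
    (hψ : psi (by have := FiniteField.cast_card_eq_zero F; rw [hF] at this; exact_mod_cast this) g = 1) : False := by
  classical
  have h2 : (2 : F) = 0 := by
    have := FiniteField.cast_card_eq_zero F
    rw [hF] at this
    exact_mod_cast this
  obtain ⟨⟨x, y⟩, hxy⟩ := om_le h2 g.2
  have h3 := psi_spec h2 g x y hxy.symm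
  rw [hψ] at h3
  have hx : x = 1 := by
    have h4 : x ∈ Subgroup.center (SL(2, F)) := (QuotientGroup.eq_one_iff x).1 h3.symm
    rw [center_bot h2, Subgroup.mem_bot] at h4
    exact h4
  subst hx
  have hy2 : y * y = 1 := by
    have h4 : g.1 * g.1 = 1 := by
      have h5 : g ^ 2 = 1 := by
        have h55 := pow_orderOf_eq_one g
        rwa [hg] at h55
      have h6 := congrArg Subtype.val h5
      rw [pow_two] at h6
      exact h6
    rw [← hxy, ← map_mul] at h4
    have h5 := rho4_inj h2 (h4.trans (map_one _).symm)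
    simpa using (Prod.ext_iff.1 h5).2
  have hy1 : y ≠ 1 := by
    rintro rfl
    have h4 : g = 1 := by
      apply Subtype.ext
      rw [← hxy]
      exact map_one _
    rw [h4, orderOf_one] at hg
    omega
  -- the sign
  have hs1 : Equiv.Perm.sign (pmHom g.1) = 1 := by
    have h4 : Om2 F ≤ (Equiv.Perm.sign.comp (pmHom (F := F))).ker :=
      Abelianization.commutator_subset_ker _
    exact h4 g.2
  have hs2 : Equiv.Perm.sign (pmHom g.1) = -1 := by
    refine sign_neg_of_fpf _ ?_ ?_ ?_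
    · rw [← map_mul]
      have h4 : g.1 * g.1 = 1 := by
        rw [← hxy, ← map_mul]
        have : ((1 : SL(2, F)), y) * (1, y) = 1 := by
          rw [Prod.mk_mul_mk, hy2]
          simp
        rw [this, map_one]
      rw [h4, map_one]
    · rintro ⟨v, hv⟩ h4
      have h5 : ((g.1.1 : GL I4 F) : Matrix I4 I4 F) *ᵥ v = v := congrArg Subtype.val h4
      rw [← hxy, rho4_mulVec] at h5
      have h6 := congrArg toM h5
      rw [toM_actOf] at h6
      have h7 : (toM v).det = 1 := by rw [det_toM]; exact hv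
      have h8 : IsUnit (toM v) := (Matrix.isUnit_iff_isUnit_det _).2 (by rw [h7]; exact isUnit_one)
      have h9 : (y : Matrix (Fin 2) (Fin 2) F)ᵀ = 1 := by
        apply h8.mul_left_cancel
        rw [mul_one]
        simpa using h6
      apply hy1
      apply Subtype.ext
      rw [← Matrix.transpose_transpose (y : Matrix (Fin 2) (Fin 2) F), h9]
      simp
    · rw [← Nat.card_eq_fintype_card, card_XX, Cfsg.Agent.Lib.Classical.Herm.ExcTwo.card_sl2 hF]
      norm_num
  rw [hs1] at hs2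
  exact absurd hs2 (by decide)

theorem odd_ker (hF : Fintype.card F = 2) (h2 : (2 : F) = 0) : ¬ 2 ∣ Nat.card (psi h2).ker := by
  intro h
  haveI : Fact (Nat.Prime 2) := ⟨Nat.prime_two⟩
  obtain ⟨g, hg⟩ := exists_prime_orderOf_dvd_card' 2 h
  have h3 : orderOf g.1 = 2 := by rw [Subgroup.orderOf_coe]; exact hg
  exact no_inv hF g.1 h3 g.2

/-- The case `(m, q) = (2, 2)`. -/
theorem main (hF : Fintype.card F = 2) (p : ℕ) [Fact p.Prime] [CharP F p] :
    ∃ χ : Cfsg.POmega F (Cfsg.quadFormPlus 2 F) → ℂ,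
      Cfsg.IsIrrCharacter (Cfsg.POmega F (Cfsg.quadFormPlus 2 F)) χ ∧
      ∀ P : Sylow p (Cfsg.POmega F (Cfsg.quadFormPlus 2 F)), χ 1 = Nat.card P ∧
        ∀ x : Cfsg.POmega F (Cfsg.quadFormPlus 2 F), x ∈ P → x ≠ 1 → χ x = 0 := by
  classical
  have h2 : (2 : F) = 0 := by
    have := FiniteField.cast_card_eq_zero F
    rw [hF] at this
    exact_mod_cast this
  have hp2 : p = 2 := by
    have h3 : p ∣ 2 := (CharP.cast_eq_zero_iff F p 2).1 (by exact_mod_cast h2)
    exact (Nat.prime_dvd_prime_iff_eq Fact.out Nat.prime_two).1 h3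
  subst hp2
  have hz : Subgroup.center (Om2 F) ≤ (psi h2).ker := by
    intro z hz
    rw [MonoidHom.mem_ker]
    have h3 : psi h2 z ∈ Subgroup.center (Matrix.ProjectiveSpecialLinearGroup (Fin 2) F) := by
      rw [Subgroup.mem_center_iff]
      intro w
      obtain ⟨w, rfl⟩ := psi_surj h2 w
      rw [← map_mul, ← map_mul, (Subgroup.mem_center_iff.1 hz w)]
    rw [center_psl2_eq_bot, Subgroup.mem_bot] at h3
    exact h3
  let ψb : Cfsg.POmega F (Cfsg.quadFormPlus 2 F) →* Matrix.ProjectiveSpecialLinearGroup (Fin 2) F :=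
    QuotientGroup.lift _ (psi h2) (fun z hz' => hz hz')
  have hs : Function.Surjective ψb := by
    intro a
    obtain ⟨g, rfl⟩ := psi_surj h2 a
    exact ⟨(g : Cfsg.POmega F (Cfsg.quadFormPlus 2 F)), rfl⟩
  have hker : ¬ 2 ∣ Nat.card ψb.ker := by
    intro h
    obtain ⟨u, hu⟩ := exists_prime_orderOf_dvd_card' 2 h
    obtain ⟨g, hg⟩ := QuotientGroup.mk_surjective u.1
    have hu1 : orderOf u.1 = 2 := by rw [Subgroup.orderOf_coe]; exact hu
    have hg1 : psi h2 g = 1 := by
      have := u.2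
      rw [MonoidHom.mem_ker, ← hg] at this
      exact this
    have h3 := odd_ker hF h2
    have h4 : orderOf (⟨g, show g ∈ (psi h2).ker from hg1⟩ : (psi h2).ker) ∣ Nat.card (psi h2).ker := orderOf_dvd_natCard _
    have h5 : orderOf g ∣ Nat.card (psi h2).ker := by
      rw [← Subgroup.orderOf_mk g (show g ∈ (psi h2).ker from hg1)]
      exact h4
    have h6 : orderOf u.1 ∣ orderOf g := by
      rw [← hg]
      exact orderOf_map_dvd (QuotientGroup.mk' _) g
    exact h3 ((hu1 ▸ h6).trans h5)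
  obtain ⟨χ₀, h1, h3⟩ := Cfsg.Agent.S2544.result (F := F) 2 2 le_rfl
  exact steinberg_of_surj 2 ψb hs hker h1 h3

end Fin2

end Cfsg.Agent.Lib.StGen.OmTwo
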